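import Cfsg.Agent.H125.Hall.Defs
import Cfsg.Agent.SignalizersComponents.StandardTools
import Cfsg.Agent.S0215
import Cfsg.Agent.S0209
import Cfsg.Agent.S0205

/-!
# S2223 [T3]: a tightly embedded quaternion group normalises the components (helper191)
-/

set_option autoImplicit false

namespace Cfsg.Agent.H191.Hall

open Subgroup Cfsg Cfsg.Agent.Cit Cfsg.Agent.H125.Hall
open Cfsg.Agent.SignalizersComponents.Components

/-- An involution of a quasisimple group which is the only involution of its centralizer is central. -/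
theorem mem_center_of_unique {L : Type*} [Group L] [Finite L] (hq : IsQuasisimple L) {x : L} (hx : orderOf x = 2)
    (hu : ∀ y : L, orderOf y = 2 → y * x = x * y → y = x) : x ∈ center L := by
  have hxx : x * x = 1 := by rw [← pow_two, ← hx, pow_orderOf_eq_one]
  have hI : Involutions.ZStar.Iso x := by
    refine ⟨hxx, fun g => ?_⟩
    have hg : orderOf (g * x * g⁻¹) = 2 := by
      rw [← hx]
      exact orderOf_injective (MulAut.conj g).toMonoidHom (MulAut.conj g).injective x
    by_contra hne
    obtain ⟨h1, h2, h3⟩ := S0209.result x (g * x * g⁻¹) hx hg (Nat.not_odd_iff_even.1 hne)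
    have h4 := hu _ h1 h2
    rw [h4] at h3
    have h5 := hu _ hg h3.symm
    apply hne
    rw [h5, hxx, orderOf_one]
    exact odd_one
  have hcomm := S0215.iso_commutator x hI
  have hN : (pPrimeCore 2 L).Normal := Lib.Cores.pPrimeCore_normal 2
  rcases quasisimple_normal hq _ hN with h | h
  · exfalso
    have h1 := Lib.Cores.pPrimeCore_coprime (G := L) 2
    rw [h] at h1
    have h2 : 2 ∣ Nat.card (⊤ : Subgroup L) := by
      rw [card_top, ← hx]
      exact orderOf_dvd_natCard x
    have h3 := Nat.Coprime.eq_one_of_dvd h1.symm h2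
    omega
  · have hc : ∀ g : L, x * g * x⁻¹ * g⁻¹ ∈ center L := fun g => h (hcomm g)
    have hn : ((center (L ⧸ center L)).comap (QuotientGroup.mk' (center L))).Normal := inferInstance
    have hx' : x ∈ (center (L ⧸ center L)).comap (QuotientGroup.mk' (center L)) := by
      rw [mem_comap, mem_center_iff]
      intro y
      obtain ⟨g, rfl⟩ := QuotientGroup.mk_surjective y
      change (g : L ⧸ center L) * (x : L ⧸ center L) = (x : L ⧸ center L) * (g : L ⧸ center L)
      rw [← QuotientGroup.mk_mul, ← QuotientGroup.mk_mul, QuotientGroup.eq]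
      have h1 := hc g⁻¹
      rw [mem_center_iff] at h1 ⊢
      intro y
      have h2 := h1 (g * y * g⁻¹)
      rw [inv_inv] at h2
      have h3 : (g * x)⁻¹ * (x * g) = x⁻¹ * (g⁻¹ * (x * g * x⁻¹ * g⁻¹) * g) * x := by group
      have h4 := hc g
      rw [mem_center_iff] at h4
      have h5 : g⁻¹ * (x * g * x⁻¹ * g⁻¹) * g = x * g * x⁻¹ * g⁻¹ := by
        rw [mul_assoc, ← h4 g, inv_mul_cancel_left]
      have h6 : x⁻¹ * (x * g * x⁻¹ * g⁻¹) * x = x * g * x⁻¹ * g⁻¹ := by
        rw [mul_assoc, ← h4 x, inv_mul_cancel_left]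
      rw [h3, h5, h6]
      exact h4 y
    rcases quasisimple_normal hq _ hn with h1 | h1
    · exfalso
      have hs := hq.2
      have hp : Group.IsPerfect L := hq.1
      have h2 : center (L ⧸ center L) = ⊤ := by
        rw [eq_top_iff]
        intro y _
        obtain ⟨g, rfl⟩ := QuotientGroup.mk_surjective y
        have h3 : g ∈ (center (L ⧸ center L)).comap (QuotientGroup.mk' (center L)) := by rw [h1]; exact mem_top g
        exact h3
      have h3 : Group.IsSolvable (L ⧸ center L) := Group.isSolvable_of_comm fun a b => by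
        have h4 : b ∈ center (L ⧸ center L) := by rw [h2]; exact mem_top b
        exact mem_center_iff.1 h4 a
      have h4 : Group.IsPerfect (L ⧸ center L) :=
        Group.IsPerfect.ofSurjective (f := QuotientGroup.mk' (center L)) (QuotientGroup.mk'_surjective _)
      have h5 : Nontrivial (L ⧸ center L) := hs.toNontrivial
      exact Group.IsPerfect.not_isSolvable (L ⧸ center L) h3
    · exact h1 hx'

section

variable {A : Type*} [Group A] [Finite A] {t : A} {Q K : Subgroup A} {L : Subgroup A}

/-- T3, from T1 -/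
theorem Q_norm_of (h : TQ t Q K) (hL : Cfsg.IsComponent L) (hT1 : ∀ x ∈ L, t * x * t⁻¹ ∈ L)
    (hodd : Odd (Nat.card (Subgroup.center L))) : ∀ a ∈ Q, ∀ x ∈ L, a * x * a⁻¹ ∈ L := by
  have htt : t * t = 1 := by rw [← pow_two, ← h.ord, pow_orderOf_eq_one]
  have hti : t⁻¹ = t := inv_eq_of_mul_eq_one_left htt
  -- central elements of `L` with square one
  have hz1 : ∀ z ∈ L, (∀ y ∈ L, y * z = z * y) → z * z = 1 → z = 1 := by
    intro z hz hc hzz
    have h1 : (⟨z, hz⟩ : L) ∈ center L := by
      rw [mem_center_iff]
      intro y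
      exact Subtype.ext (hc y y.2)
    by_contra hne
    have h2 : orderOf (⟨⟨z, hz⟩, h1⟩ : center L) = 2 := by
      refine orderOf_eq_prime (by rw [pow_two]; exact Subtype.ext (Subtype.ext hzz)) ?_
      intro h3
      exact hne (congrArg (fun w : center L => ((w : L) : A)) h3)
    have h3 : 2 ∣ Nat.card (center L) := by
      rw [← h2]
      exact orderOf_dvd_natCard _
    exact (Nat.not_even_iff_odd.2 hodd) (even_iff_two_dvd.2 h3)
  have heven : Even (Nat.card L) := by
    by_contra hne
    exact quasisimple_not_isSolvable hL.2 (S0205.result (Nat.not_even_iff_odd.1 hne))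
  have htN : t ∈ normalizer (L : Set A) := by
    rw [mem_normalizer_iff]
    intro y
    refine ⟨fun hy => hT1 y hy, fun hy => ?_⟩
    have h1 := hT1 _ hy
    have h2 : t * (t * y * t⁻¹) * t⁻¹ = y := by
      rw [hti]
      calc t * (t * y * t) * t = (t * t) * y * (t * t) := by group
        _ = y := by rw [htt, one_mul, mul_one]
    rwa [h2] at h1
  have key : Q ≤ normalizer (L : Set A) := by
    refine h.isQ.le_of_four fun a haQ ha4 => ?_
    by_contra ha
    have ha2 : a ^ 2 = t := AutQuat.IsQ.sq_eq (fun s hs ho => h.uniq s (h.le hs) ho) haQ ha4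
    have hL' := isComponent_conj a hL
    have hne : L ≠ L.map (MulAut.conj a).toMonoidHom := by
      intro he
      apply ha
      rw [mem_normalizer_iff]
      intro y
      constructor
      · intro hy
        rw [he]
        exact ⟨y, hy, rfl⟩
      · intro hy
        rw [he] at hy
        obtain ⟨z, hz, hzy⟩ := hy
        have h1 : a * z * a⁻¹ = a * y * a⁻¹ := hzy
        have h2 : z = y := mul_left_cancel (mul_right_cancel h1)
        rwa [← h2]
    have hcen := component_le_centralizer_of_ne hL hL' hne
    -- elements of `L` commute with the conjugates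
    have hcm : ∀ y ∈ L, ∀ z ∈ L, y * (a * z * a⁻¹) = a * z * a⁻¹ * y := by
      intro y hy z hz
      exact (mem_centralizer_iff.1 (hcen hy) _ ⟨z, hz, rfl⟩).symm
    have hconj1 : ∀ y z : A, a * y * a⁻¹ * (a * z * a⁻¹) = a * (y * z) * a⁻¹ := fun y z => by group
    have hkey : ∀ y ∈ L, orderOf y = 2 → y * t = t * y → y * (a * y * a⁻¹) = t := by
      intro y hy hy2 hyt
      have hyy : y * y = 1 := by rw [← pow_two, ← hy2, pow_orderOf_eq_one]
      have hyi : y⁻¹ = y := inv_eq_of_mul_eq_one_left hyy
      have hy1 : y ≠ 1 := by rintro rfl; rw [orderOf_one] at hy2; omega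
      apply h.uniq
      · have h1 := K.mul_mem (h.norm y hyt a (h.le haQ)) (K.inv_mem (h.le haQ))
        rw [hyi] at h1
        have h2 : y * (a * y * a⁻¹) = y * a * y * a⁻¹ := by group
        rwa [h2]
      · refine orderOf_eq_prime ?_ ?_
        · rw [pow_two]
          calc y * (a * y * a⁻¹) * (y * (a * y * a⁻¹)) = y * ((a * y * a⁻¹) * y) * (a * y * a⁻¹) := by
                simp only [mul_assoc]
            _ = y * (y * (a * y * a⁻¹)) * (a * y * a⁻¹) := by rw [hcm y hy y hy]
            _ = (y * y) * ((a * y * a⁻¹) * (a * y * a⁻¹)) := by simp only [mul_assoc]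
            _ = 1 := by rw [hconj1, hyy]; group
        · intro h1
          have h2 : a * y * a⁻¹ = y := by
            rw [← hyi]
            rw [← hyi] at h1
            have := eq_inv_of_mul_eq_one_right h1
            rw [this, inv_inv, hyi]
          exact hy1 (hz1 y hy (fun z hz => by
            have := hcm z hz y hy
            rwa [h2] at this) hyy)
    obtain ⟨x, hxL, hx2, hxt⟩ :=
      SignalizersComponents.StandardTools.exists_involution_commute heven htt htN
    have hxx : x * x = 1 := by rw [← pow_two, ← hx2, pow_orderOf_eq_one]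
    have hxk := hkey x hxL hx2 hxt.symm
    -- uniqueness
    have huniq : ∀ y ∈ L, orderOf y = 2 → y * t = t * y → y = x := by
      intro y hy hy2 hyt
      have hyy : y * y = 1 := by rw [← pow_two, ← hy2, pow_orderOf_eq_one]
      have h1 := hkey y hy hy2 hyt
      have h2 : x⁻¹ * y = a * (x * y⁻¹) * a⁻¹ := by
        have h3 : y * (a * y * a⁻¹) = x * (a * x * a⁻¹) := by rw [h1, hxk]
        have h4 : x⁻¹ * y = (a * x * a⁻¹) * (a * y * a⁻¹)⁻¹ := by
          rw [eq_mul_inv_iff_mul_eq, mul_assoc, h3, inv_mul_cancel_left]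
        rw [h4]; group
      have hzc : ∀ w ∈ L, w * (x⁻¹ * y) = (x⁻¹ * y) * w := by
        intro w hw
        rw [h2]
        exact hcm w hw _ (L.mul_mem hxL (L.inv_mem hy))
      have hzz : (x⁻¹ * y) * (x⁻¹ * y) = 1 := by
        have h5 := hzc x hxL
        rw [mul_inv_cancel_left] at h5
        have hxi : x⁻¹ = x := inv_eq_of_mul_eq_one_left hxx
        rw [hxi] at h5 ⊢
        calc (x * y) * (x * y) = (x * y * x) * y := by simp only [mul_assoc]
          _ = y * y := by rw [← h5]
          _ = 1 := hyy
      have h7 := hz1 _ (L.mul_mem (L.inv_mem hxL) hy) hzc hzz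
      exact (inv_mul_eq_one.1 h7).symm
    have hxc : (⟨x, hxL⟩ : L) ∈ center L := by
      refine mem_center_of_unique hL.2 (by rw [← Subgroup.orderOf_coe]; exact hx2) fun y hy2 hyx => ?_
      have hyx' : (y : A) * x = x * y := congrArg Subtype.val hyx
      refine Subtype.ext (huniq y y.2 (by rw [Subgroup.orderOf_coe]; exact hy2) ?_)
      rw [← hxk, ← mul_assoc, hyx', mul_assoc, hcm y y.2 x hxL, mul_assoc x]
    have hx1 : x = 1 := hz1 x hxL (fun y hy => congrArg Subtype.val (mem_center_iff.1 hxc ⟨y, hy⟩)) hxx
    rw [hx1, orderOf_one] at hx2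
    omega
  intro a ha x hx
  exact (mem_normalizer_iff.1 (key ha) x).1 hx

end

end Cfsg.Agent.H191.Hall
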